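import Mathlib
import Cfsg.Agent.Lib.ZJ.QdInvolve
import Cfsg.Agent.Lib.ZJ.FunctorApp
import Cfsg.Agent.Lib.Tech.SylowIn
import Cfsg.Agent.Lib.PGroup.Basic

/-! # Primitive pairs of characteristic `p` -/

set_option autoImplicit false
set_option linter.unusedSectionVars false

namespace CfsgLib.LocA.Prim

open Subgroup Cfsg CfsgLib.Tech Matrix
open scoped commutatorElement MatrixGroups

variable {G : Type*} [Group G] [Finite G] {p : ℕ} [Fact p.Prime] {M N S A E : Subgroup G}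

local notation "𝒩(" X ")" => normalizer ((X : Subgroup _) : Set _)
local notation "𝒞(" X ")" => centralizer ((X : Subgroup _) : Set _)

/-- `O_p(M)` -/
abbrev Q (p : ℕ) (M : Subgroup G) : Subgroup G := (pCore p M).map M.subtype

/-- the join of the centres of the Sylow subgroups -/
def V (p : ℕ) (M : Subgroup G) : Subgroup G := ⨆ (S) (_ : IsSylowIn p S M), S ⊓ 𝒞(S)

/-- the 2-subgroups are abelian -/
def Ab (M : Subgroup G) : Prop := ∀ P ≤ M, IsPGroup 2 P → P ≤ 𝒞(P)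

theorem le_norm_Q : M ≤ 𝒩(Q p M) := le_normalizer.trans (Core.normalizer_le_normalizer_map_pCore M)

theorem Q_le (hS : IsSylowIn p S M) : Q p M ≤ S :=
  hS.le_of_le_normalizer (Core.isPGroup_map_pCore M) (map_subtype_le _) le_norm_Q

theorem le_Q (h : ∀ S, IsSylowIn p S M → A ≤ S) : A ≤ Q p M := fun x hx => by
  obtain ⟨S, hS⟩ := exists_isSylowIn p M
  refine ⟨⟨x, hS.le (h S hS hx)⟩, ?_, rfl⟩
  rw [Core.pCore_eq_iInf_sylow, SetLike.mem_coe, mem_iInf]
  intro R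
  obtain ⟨y, hy, e⟩ := h _ (IsSylowIn.of_sylow_subgroup R) hx
  exact (Subtype.ext e : y = ⟨x, _⟩) ▸ hy

theorem le_V (hS : IsSylowIn p S M) : S ⊓ 𝒞(S) ≤ V p M := by
  unfold V; exact le_iSup₂_of_le S hS le_rfl

theorem cj_V (g : G) : cj g (V p M) ≤ V p (cj g M) :=
  map_le_iff_le_comap.2 (iSup₂_le fun S hS => map_le_iff_le_comap.1 (by
    show cj g (S ⊓ 𝒞(S)) ≤ _
    rw [cj_inf, cj_centralizer]
    exact le_V (hS.cj g)))

theorem le_norm_V : M ≤ 𝒩(V p M) := fun g hg => mem_normalizer_of_cj_le ((cj_V g).trans (by rw [cj_eq_of_mem hg]))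

theorem not_involves (hp : p ≠ 2) (h : Ab M) : ¬ Involves SL(2, ZMod p) M := by
  rw [ZJ.involves_iff]
  rintro ⟨K, f, hf⟩
  obtain ⟨a, b, hab⟩ := ZMod.sq_add_sq p (-1)
  obtain ⟨i, hi⟩ : ∃ i : SL(2, ZMod p), i.1 = !![0, -1; 1, 0] := ⟨⟨_, by simp [det_fin_two]⟩, rfl⟩
  obtain ⟨j, hj⟩ : ∃ j : SL(2, ZMod p), j.1 = !![a, b; b, -a] :=
    ⟨⟨_, by rw [det_fin_two_of]; linear_combination -hab⟩, rfl⟩
  have h1 : i * i = -1 := by ext r s; fin_cases r <;> fin_cases s <;> simp [hi]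
  have h2 : j * j = -1 := by
    ext r s; fin_cases r <;> fin_cases s <;> simp [hj] <;> first | linear_combination hab | ring
  have h3 : j * i = -(i * j) := by ext r s; fin_cases r <;> fin_cases s <;> simp [hi, hj]
  have h4 : ∀ x : SL(2, ZMod p), x * x = -1 → IsPGroup 2 (zpowers x) := fun x e =>
    isPGroup_zpowers_of_pow (k := 2) (by rw [show 2 ^ 2 = 2 * 2 from rfl, pow_mul, sq x, e]; simp)
  have h5 : IsPGroup 2 (zpowers j ⊔ zpowers i : Subgroup _) := (h4 j h2).to_sup_of_normal_right' (h4 i h1)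
    (zpowers_le.2 (mem_normalizer_of_forall (by
      rintro _ ⟨n, rfl⟩
      have : j * i * j⁻¹ = i⁻¹ := by
        rw [h3, neg_mul, mul_inv_cancel_right, eq_inv_iff_mul_eq_one, neg_mul, h1, neg_neg]
      simp only
      rw [← conj_zpow, this]
      exact zpow_mem (inv_mem (mem_zpowers i)) n)))
  obtain ⟨T, hT⟩ := h5.exists_le_sylow
  obtain ⟨R, rfl⟩ := Sylow.mapSurjective_surjective hf 2 T
  obtain ⟨x, hx, rfl⟩ := hT (mem_sup_left (mem_zpowers j))
  obtain ⟨y, hy, rfl⟩ := hT (mem_sup_right (mem_zpowers i))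
  have h6 := h (((R : Subgroup K).map K.subtype).map M.subtype) (map_subtype_le _) ((R.isPGroup'.map _).map _)
    ⟨_, ⟨y, hy, rfl⟩, rfl⟩ _ ⟨_, ⟨x, hx, rfl⟩, rfl⟩
  have h7 : x * y = y * x := Subtype.ext (Subtype.ext h6)
  rw [← map_mul, h7, map_mul, ← mul_neg, mul_right_inj, ← mul_neg_one, left_eq_mul] at h3
  have h8 := congrArg (fun M : SL(2, ZMod p) => M.1 0 0) h3
  exact ZJ.two_ne_zero_of_charP hp (ZMod p) (by simp at h8; linear_combination -h8)

/-- the hypotheses on one member of the pair -/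
structure Half (p : ℕ) (M N : Subgroup G) : Prop where
  ne : ¬ M ≤ N
  prim : ∀ A, A ≠ ⊥ → A ≤ M ⊓ N → N ≤ 𝒩(A) → M ⊓ 𝒩(A) ≤ N
  char : M ⊓ 𝒞(Q p M) ≤ Q p M
  le : Q p M ≤ N
  ab : Ab M

theorem Half.cj (h : Half p M N) (g : G) : Half p (cj g M) (cj g N) where
  ne e := h.ne ((cj_le_cj_iff g).1 e)
  prim A h1 h2 h3 := by
    obtain ⟨A, rfl⟩ : ∃ B, Tech.cj g B = A := ⟨_, cj_cj_inv g A⟩
    rw [← cj_inf, cj_le_cj_iff] at h2
    rw [← cj_normalizer, cj_le_cj_iff] at h3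
    rw [← cj_normalizer, ← cj_inf, cj_le_cj_iff]
    exact h.prim A (mt cj_eq_bot_iff.2 h1) h2 h3
  char := by
    rw [Q, ← Core.map_conj_map_pCore, ← cj_centralizer, ← cj_inf]; exact cj_mono g h.char
  le := by rw [Q, ← Core.map_conj_map_pCore]; exact cj_mono g h.le
  ab A h1 h2 := by
    have := cj_mono g (h.ab (Tech.cj g⁻¹ A) (by simpa only [cj_inv_cj] using cj_mono g⁻¹ h1) (isPGroup_cj _ h2))
    rwa [cj_centralizer, cj_cj_inv] at this

namespace Half

variable (h : Half p M N)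
include h

theorem V_le : V p M ≤ Q p M ⊓ 𝒞(Q p M) := iSup₂_le fun _ hS =>
  have := inf_le_right.trans (centralizer_le (Q_le hS))
  le_inf ((le_inf (inf_le_left.trans hS.le) this).trans h.char) this

theorem V_Q : V p M ≤ Q p M := h.V_le.trans inf_le_left

theorem V_comm : V p M ≤ 𝒞(V p M) := (h.V_le.trans inf_le_right).trans (centralizer_le h.V_Q)

theorem V_p : IsPGroup p (V p M) := (Core.isPGroup_map_pCore M).to_le h.V_Q

theorem V_ne : V p M ≠ ⊥ := fun e => by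
  obtain ⟨S, hS⟩ := exists_isSylowIn p M
  refine Core.inf_centralizer_ne_bot_of_isPGroup hS.pgroup hS.pgroup le_normalizer (fun e1 => h.ne ?_)
    (eq_bot_iff.2 ((le_V hS).trans e.le))
  have h1 := (Q_le hS).trans e1.le
  have h2 : M ≤ 𝒞(Q p M) := fun x _ y hy => by rw [mem_bot.1 (h1 hy), one_mul, mul_one]
  exact ((le_inf le_rfl h2).trans h.char).trans h.le

theorem stable (hE : IsPGroup p E) (hn : M ≤ 𝒩(E)) (hA : IsPGroup p A) (hAM : A ≤ M) (hq : ⁅⁅E, A⁆, A⁆ = ⊥)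
    (hS : IsSylowIn p S M) : A ≤ M ⊓ 𝒞(E) ⊔ S := by
  by_cases hp : p = 2
  · subst hp
    obtain ⟨T, hT, h1⟩ := exists_isSylowIn_ge hA hAM
    exact le_sup_of_le_right ((h1.trans ((le_inf hT.le ((h.ab T hT.le hT.pgroup).trans
      (centralizer_le (Q_le hT)))).trans h.char)).trans (Q_le hS))
  intro a ha
  have := normal_subgroupOf_of_le_normalizer (hn.trans (Core.normalizer_le_normalizer_centralizer (E : Set G)))
  have hf := QuotientGroup.mk'_surjective ((𝒞(E)).subgroupOf M)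
  obtain ⟨s, hs, e⟩ := Core.pCore_le_sylow (hS.toSylow.mapSurjective hf) (ZJ.map_mem_pCore_of_not_involves hp hE hn
    (fun h1 => not_involves hp h.ab h1.2) _ hf (fun x hx => (QuotientGroup.eq_one_iff x).2 hx) ⟨a, hAM ha⟩
    (ZJ.quadratic_mono hq (zpowers_le.2 ha)))
  have h1 := QuotientGroup.eq.1 e
  simpa using mul_mem (mem_sup_right (hS.mem_toSylow.1 hs)) (mem_sup_left (S := M ⊓ 𝒞(E)) ⟨(s⁻¹ * _).2, h1⟩)

theorem le_cent (hA : IsPGroup p A) (hAM : A ≤ M) (hq : ⁅⁅V p M, A⁆, A⁆ = ⊥) : A ≤ 𝒞(V p M) := by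
  have h1 : V p M ≤ 𝒞(A) := iSup₂_le fun S hS => by
    have h2 : S ≤ 𝒞(S ⊓ 𝒞(S)) := le_centralizer_iff.1 inf_le_right
    exact le_centralizer_iff.1 ((h.stable h.V_p le_norm_V hA hAM hq hS).trans
      (sup_le (inf_le_right.trans (centralizer_le (le_V hS))) h2))
  exact le_centralizer_iff.1 h1

theorem le_of_quad (h' : Half p N M) (hE : IsPGroup p E) (hn : M ≤ 𝒩(E)) (hc : M ⊓ 𝒞(E) ≤ N) (hA : A ≤ Q p N)
    (hq : ⁅⁅E, A⁆, A⁆ = ⊥) : A ≤ Q p M := by
  have hQ := Core.isPGroup_map_pCore (p := p) N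
  let D := ⨅ (S) (_ : IsSylowIn p S M), M ⊓ 𝒞(E) ⊔ S
  have h1 : M ⊓ 𝒞(E) ≤ 𝒩(Q p N ⊓ D) := (le_inf (hc.trans le_norm_Q)
    ((le_iInf₂ fun _ _ => le_sup_left).trans le_normalizer)).trans inf_normalizer_le_normalizer_inf
  have h0 : A ≤ D := le_iInf₂ fun S hS => h.stable hE hn (hQ.to_le hA) (hA.trans (h'.le)) hq hS
  refine (le_inf hA h0).trans (le_Q fun S hS => ?_)
  obtain ⟨g, hg, h2⟩ := (hS.of_le le_sup_right (sup_le inf_le_left hS.le)).exists_cj_le (hQ.to_le inf_le_left)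
    (inf_le_right.trans (iInf₂_le S hS) : Q p N ⊓ D ≤ _)
  rw [sup_comm, Core.mem_sup_of_le_normalizer_right (hS.le.trans ((le_inf le_normalizer (hn.trans
    (Core.normalizer_le_normalizer_centralizer (E : Set G)))).trans inf_normalizer_le_normalizer_inf))] at hg
  obtain ⟨s, hs, c, hc, rfl⟩ := hg
  rwa [cj_mul, mem_normalizer_iff_cj.1 (h1 hc), ← cj_eq_of_mem hs, cj_le_cj_iff] at h2

end Half

omit [Finite G] in
theorem quad {X : Subgroup G} (h1 : E ≤ 𝒩(X)) (h2 : A ≤ X) (h3 : X ≤ 𝒞(X)) : ⁅⁅E, A⁆, A⁆ = ⊥ :=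
  ZJ.commutator_eq_bot_of_commute fun _ hx _ hy => h3 (h2 hy) _ ((commutator_mono le_rfl h2).trans
    (le_normalizer_iff_commutator_le_right.1 h1) hx)

/-- primitive pairs -/
def Adj (p : ℕ) (M N : Subgroup G) : Prop := Half p M N ∧ Half p N M

/-- the join of `V` over the neighbours -/
def W (p : ℕ) (M : Subgroup G) : Subgroup G := ⨆ (N) (_ : Adj p M N), V p N

theorem Adj.V_W (h : Adj p M N) : V p N ≤ W p M := le_iSup₂_of_le (f := fun N (_ : Adj p M N) => V p N) N h le_rfl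

theorem Adj.V_Q (h : Adj p M N) : V p N ≤ Q p M :=
  h.1.le_of_quad h.2 (Core.isPGroup_map_pCore M) le_norm_Q (h.1.char.trans h.1.le) h.2.V_Q
    (quad (h.1.le.trans le_norm_V) le_rfl h.2.V_comm)

theorem W_Q : W p M ≤ Q p M := iSup₂_le fun _ h => h.V_Q

theorem W_comm : W p M ≤ 𝒞(W p M) := iSup₂_le fun _ h => le_centralizer_iff.1 (iSup₂_le fun _ h' =>
  h.2.le_cent h'.2.V_p (h'.V_Q.trans h.1.le) (quad ((h.V_Q.trans h'.1.le).trans le_norm_V) le_rfl h'.2.V_comm))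

theorem le_norm_W : M ≤ 𝒩(W p M) := fun g hg => mem_normalizer_of_cj_le (map_le_iff_le_comap.2
  (iSup₂_le fun N h => map_le_iff_le_comap.1 ((cj_V g).trans (Adj.V_W (by
    have := And.intro (h.1.cj g) (h.2.cj g)
    rwa [cj_eq_of_mem hg] at this)))))

/-- paths -/
inductive Path (p : ℕ) : ℕ → Subgroup G → Subgroup G → Prop
  | one {a b : Subgroup G} : Adj p a b → Path p 0 a b
  | cons {n : ℕ} {a b c : Subgroup G} : Adj p a b → Path p n b c → Path p (n + 1) a c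

theorem Path.snoc {n : ℕ} {a b c : Subgroup G} (h : Path p n a b) (h' : Adj p b c) : Path p (n + 1) a c := by
  induction h with
  | one h => exact .cons h (.one h')
  | cons h _ ih => exact .cons h (ih h')

theorem Path.symm {n : ℕ} {a b : Subgroup G} (h : Path p n a b) : Path p n b a := by
  induction h with
  | one h => exact .one h.symm
  | cons h _ ih => exact ih.snoc h.symm

theorem Path.cj {n : ℕ} {a b : Subgroup G} (h : Path p n a b) (g : G) : Path p n (cj g a) (cj g b) := by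
  induction h with
  | one h => exact .one ⟨h.1.cj g, h.2.cj g⟩
  | cons h _ ih => exact .cons ⟨h.1.cj g, h.2.cj g⟩ ih

theorem Path.V_Q {n : ℕ} {a b : Subgroup G} (h : Path p n a b) : V p a ≤ Q p b := by
  induction n generalizing a b with
  | zero => cases h with | one h => exact Adj.V_Q h.symm
  | succ n ih =>
    cases h.symm with | cons h1 h2 => ?_
    cases h with | cons h3 h4 => ?_
    rename_i c d
    have h5 : W p b ≤ d := iSup₂_le fun m hm => by
      cases h4 with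
      | one h4 => exact hm.V_Q.trans h4.2.le
      | cons h4 h5 => exact (ih (h5.snoc hm).symm).trans h4.2.le
    refine h1.1.le_of_quad h1.2 ((Core.isPGroup_map_pCore b).to_le W_Q) le_norm_W (le_trans (inf_le_inf_left _
      ((centralizer_le h1.V_W).trans (centralizer_le_normalizer _))) (h1.1.prim _ h1.2.V_ne
        (le_inf (h1.2.V_Q.trans h1.2.le) (h1.2.V_Q.trans (map_subtype_le _))) le_norm_V)) (ih h2.symm)
      (quad (h5.trans le_norm_W) (Adj.V_W h3.symm) W_comm)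

theorem not_adj (h : Adj p M N) : False := by
  let X := ⨆ (a) (_ : ∃ n, Path p n a M), V p a
  have key : ∀ L : Subgroup G, (∀ a, (∃ n, Path p n a M) ↔ ∃ n, Path p n a L) → L ≤ 𝒩(X) := fun L hL g hg =>
    mem_normalizer_of_cj_le (map_le_iff_le_comap.2 (iSup₂_le fun a ha => map_le_iff_le_comap.1 ((cj_V g).trans
      (le_iSup₂_of_le (f := fun a (_ : ∃ n, Path p n a M) => V p a) _ (by
        obtain ⟨n, h1⟩ := (hL a).1 ha
        exact (hL _).2 ⟨n, by simpa only [cj_eq_of_mem hg] using h1.cj g⟩) le_rfl))))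
  have h1 : X ≤ Q p M := iSup₂_le fun a ⟨_, h⟩ => h.V_Q
  exact h.1.ne ((le_inf le_rfl (key M fun _ => Iff.rfl)).trans (h.1.prim X (ne_bot_of_le_ne_bot h.2.V_ne
    (le_iSup₂_of_le (f := fun a (_ : ∃ n, Path p n a M) => V p a) N ⟨0, .one h.symm⟩ le_rfl))
    (le_inf (h1.trans (map_subtype_le _)) (h1.trans h.1.le))
    (key N fun _ => ⟨fun ⟨_, h2⟩ => ⟨_, h2.snoc h⟩, fun ⟨_, h2⟩ => ⟨_, h2.snoc h.symm⟩⟩)))

end CfsgLib.LocA.Prim
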